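import Cfsg.Agent.Lib.Suzuki.Star

/-! The action on the cosets of a Sylow normaliser, for any group isomorphic to the Suzuki group. -/

set_option autoImplicit false

namespace Cfsg.Agent.Lib.Suzuki

open Matrix
open scoped Pointwise

variable {F : Type*} [Field F] [Fintype F] {m : ℕ}
variable (hF : Fintype.card F = 2 ^ (2 * m + 1)) (hm : 1 ≤ m)
variable {G : Type*} [Group G] (e : G ≃* Cfsg.Sz F m)

include hF hm

/-- The standard Sylow 2-subgroup of a group isomorphic to the Suzuki group. -/
noncomputable def sylowOf : Sylow 2 G :=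
  IsPGroup.toSylow (P := (UU hF hm).comap (e : G →* Cfsg.Sz F m))
    (by
      rintro ⟨x, hx⟩
      refine ⟨2, ?_⟩
      apply Subtype.ext
      obtain ⟨a, b, hab⟩ := hx
      apply e.injective
      show e (x ^ (2 ^ 2)) = e 1
      rw [map_pow, map_one]
      have hab' : e x = uG hF a b := hab
      rw [hab']
      exact uG_pow_four hF hm a b)
    (by
      have : ((UU hF hm).comap (e : G →* Cfsg.Sz F m)).index = (UU hF hm).index :=
        Subgroup.index_comap_of_surjective _ e.surjective
      rw [this]
      exact odd_index_UU hF hm)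

theorem mem_sylowOf {x : G} : x ∈ (sylowOf hF hm e : Subgroup G) ↔ e x ∈ UU hF hm := Iff.rfl

theorem mem_normalizer_sylowOf {x : G} :
    x ∈ Subgroup.normalizer ((sylowOf hF hm e : Subgroup G) : Set G) ↔ e x ∈ BB F m := by
  rw [← normalizer_UU hF hm, Subgroup.mem_normalizer_iff, Subgroup.mem_normalizer_iff]
  constructor
  · intro h y
    obtain ⟨z, rfl⟩ := e.surjective y
    rw [← map_mul, ← map_inv, ← map_mul]
    exact h z
  · intro h y
    have := h (e y)
    rw [← map_mul, ← map_inv, ← map_mul] at this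
    exact this

/-- The normaliser of the standard Sylow subgroup corresponds to the point stabiliser. -/
noncomputable def normEquiv : Subgroup.normalizer ((sylowOf hF hm e : Subgroup G) : Set G) ≃ BB F m :=
  Equiv.subtypeEquiv e.toEquiv (fun _ => mem_normalizer_sylowOf hF hm e)

/-- The map from cosets of the normaliser to ovoid points. -/
noncomputable def cosetMap : G ⧸ Subgroup.normalizer ((sylowOf hF hm e : Subgroup G) : Set G) → Cfsg.suzukiOvoid F m :=
  Quotient.lift (fun x : G => (⟨e x • pinf F, smul_mem_ovoid hF (e x) pinf_mem⟩ : Cfsg.suzukiOvoid F m))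
    (by
      intro x y hxy
      have h1 : x⁻¹ * y ∈ Subgroup.normalizer ((sylowOf hF hm e : Subgroup G) : Set G) :=
        QuotientGroup.leftRel_apply.mp hxy
      rw [mem_normalizer_sylowOf hF hm e, map_mul, map_inv, MulAction.mem_stabilizer_iff, mul_smul, inv_smul_eq_iff] at h1
      exact Subtype.ext h1.symm)

theorem cosetMap_mk (x : G) :
    (cosetMap hF hm e (x : G ⧸ Subgroup.normalizer ((sylowOf hF hm e : Subgroup G) : Set G)) : Projectivization F (Fin 4 → F)) =
      e x • pinf F := rfl

theorem cosetMap_smul (g : G) (z : G ⧸ Subgroup.normalizer ((sylowOf hF hm e : Subgroup G) : Set G)) :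
    (cosetMap hF hm e (g • z) : Projectivization F (Fin 4 → F)) = e g • (cosetMap hF hm e z : Projectivization F (Fin 4 → F)) := by
  induction z using QuotientGroup.induction_on with
  | H x =>
    have : g • (x : G ⧸ Subgroup.normalizer ((sylowOf hF hm e : Subgroup G) : Set G)) = ((g * x : G) : G ⧸ _) := rfl
    rw [this, cosetMap_mk, cosetMap_mk, map_mul, mul_smul]

theorem cosetMap_inj : Function.Injective (cosetMap hF hm e) := by
  intro z w h
  induction z using QuotientGroup.induction_on with
  | H x =>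
    induction w using QuotientGroup.induction_on with
    | H y =>
      have h1 := congrArg Subtype.val h
      rw [cosetMap_mk, cosetMap_mk] at h1
      apply QuotientGroup.eq.mpr
      rw [mem_normalizer_sylowOf hF hm e, map_mul, map_inv, MulAction.mem_stabilizer_iff, mul_smul, inv_smul_eq_iff]
      exact h1.symm

theorem cosetMap_surj : Function.Surjective (cosetMap hF hm e) := by
  rintro ⟨p, hp⟩
  obtain ⟨g, hg⟩ := exists_smul_pinf hF hm hp
  refine ⟨((e.symm g⁻¹ : G) : G ⧸ _), Subtype.ext ?_⟩
  rw [cosetMap_mk, e.apply_symm_apply, inv_smul_eq_iff, hg]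

theorem card_normalizer_sylowOf :
    Nat.card (Subgroup.normalizer ((sylowOf hF hm e : Subgroup G) : Set G)) =
      (2 ^ (2 * m + 1)) ^ 2 * (2 ^ (2 * m + 1) - 1) :=
  (Nat.card_congr (normEquiv hF hm e)).trans (card_stab hF hm)

theorem index_normalizer_sylowOf :
    (Subgroup.normalizer ((sylowOf hF hm e : Subgroup G) : Set G)).index = (2 ^ (2 * m + 1)) ^ 2 + 1 := by
  rw [Subgroup.index, Nat.card_congr (Equiv.ofBijective _ ⟨cosetMap_inj hF hm e, cosetMap_surj hF hm e⟩),
    ovoid_card m, hF]

theorem two_trans_coset :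
    MulAction.IsMultiplyPretransitive G (G ⧸ Subgroup.normalizer ((sylowOf hF hm e : Subgroup G) : Set G)) 2 := by
  rw [MulAction.is_two_pretransitive_iff]
  intro a b c d hab hcd
  have hab' : (cosetMap hF hm e a : Projectivization F (Fin 4 → F)) ≠ cosetMap hF hm e b := fun h =>
    hab (cosetMap_inj hF hm e (Subtype.ext h))
  have hcd' : (cosetMap hF hm e c : Projectivization F (Fin 4 → F)) ≠ cosetMap hF hm e d := fun h =>
    hcd (cosetMap_inj hF hm e (Subtype.ext h))
  obtain ⟨g, h1, h2⟩ := exists_pair hF hm (cosetMap hF hm e a).2 (cosetMap hF hm e b).2 hab'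
    (cosetMap hF hm e c).2 (cosetMap hF hm e d).2 hcd'
  refine ⟨e.symm g, ?_, ?_⟩
  · apply cosetMap_inj hF hm e
    apply Subtype.ext
    rw [cosetMap_smul, e.apply_symm_apply, h1]
  · apply cosetMap_inj hF hm e
    apply Subtype.ext
    rw [cosetMap_smul, e.apply_symm_apply, h2]

theorem regular_coset
    (x y : G ⧸ Subgroup.normalizer ((sylowOf hF hm e : Subgroup G) : Set G))
    (hx : x ≠ QuotientGroup.mk 1) (hy : y ≠ QuotientGroup.mk 1) :
    ∃! s : (sylowOf hF hm e : Subgroup G), (s : G) • x = y := by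
  have hbase : ∀ z : G ⧸ Subgroup.normalizer ((sylowOf hF hm e : Subgroup G) : Set G),
      z ≠ QuotientGroup.mk 1 → ∃ a b : F, (cosetMap hF hm e z : Projectivization F (Fin 4 → F)) = pt m a b := by
    intro z hz
    rcases (mem_ovoid _).mp (cosetMap hF hm e z).2 with h | h
    · exfalso
      apply hz
      apply cosetMap_inj hF hm e
      apply Subtype.ext
      rw [h, cosetMap_mk, map_one, one_smul]
    · exact h
  obtain ⟨a, b, hab⟩ := hbase x hx
  obtain ⟨c, d, hcd⟩ := hbase y hy
  have h2 := two_zero hF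
  have hval : ∀ s : (sylowOf hF hm e : Subgroup G), (s : G) • x = y ↔
      e (s : G) • pt m a b = pt m c d := by
    intro s
    constructor
    · intro h
      rw [← hab, ← hcd, ← cosetMap_smul, h]
    · intro h
      apply cosetMap_inj hF hm e
      apply Subtype.ext
      rw [cosetMap_smul, hab, hcd, h]
  set α := a + c with hα
  set β := d + b + α ^ (2 ^ (m + 1)) * a with hβ
  have hsol : uG hF α β • pt m a b = pt m c d := by
    rw [uG_smul_pt hF]
    congr 1 <;> grind
  have hs0 : e.symm (uG hF α β) ∈ (sylowOf hF hm e : Subgroup G) := by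
    rw [mem_sylowOf, e.apply_symm_apply]
    exact uG_mem hF hm _ _
  refine ⟨⟨e.symm (uG hF α β), hs0⟩, (hval ⟨_, hs0⟩).mpr ?_, ?_⟩
  · show e (e.symm (uG hF α β)) • _ = _
    rw [e.apply_symm_apply]
    exact hsol
  · rintro ⟨s, hs⟩ hs2
    rw [hval] at hs2
    obtain ⟨α', β', hs3⟩ := (mem_sylowOf hF hm e).mp hs
    simp only at hs2
    rw [hs3, uG_smul_pt hF] at hs2
    obtain ⟨h3, h4⟩ := pt_inj hs2
    have h5 : α' = α := by grind
    have h6 : β' = β := by
      rw [h5] at h4
      grind
    apply Subtype.ext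
    simp only
    rw [← e.symm_apply_apply s, hs3, h5, h6]

/-- The statement for any group isomorphic to the Suzuki group. -/
theorem card_of_equiv (e' : G ≃* Cfsg.Sz F m) :
    Nat.card G = (2 ^ (2 * m + 1)) ^ 2 * (2 ^ (2 * m + 1) - 1) * ((2 ^ (2 * m + 1)) ^ 2 + 1) := by
  rw [Nat.card_congr e'.toEquiv, card_Sz hF hm]
  ring

end Cfsg.Agent.Lib.Suzuki
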