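import Cfsg.Agent.Lib.Suzuki.MultA

/-! The Schur multiplier of the Suzuki groups: central extensions by a group of order two. -/

set_option autoImplicit false

namespace Cfsg.Agent.Lib.Suzuki

open RM
open scoped commutatorElement

variable {F : Type*} [Field F] [Fintype F] {m : ℕ} (hF : Fintype.card F = 2 ^ (2 * m + 1)) (hm : 1 ≤ m)
variable {Γ : Type*} [Group Γ] {σ : Γ →* Cfsg.Sz F m} (hs : Function.Surjective σ) (hK : σ.ker ≤ Subgroup.center Γ)
  {y : Γ} (hy1 : y ≠ 1) (hyk : y ∈ σ.ker) (hY : ∀ w ∈ σ.ker, w = 1 ∨ w = y)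

/-- Lifts of the centre of the unipotent group. -/
noncomputable def zL (b : F) : Γ := Function.surjInv hs (uG hF 0 b)
/-- Lifts of the complement. -/
noncomputable def sL (a : F) : Γ := Function.surjInv hs (uG hF a 0)
/-- Lifts of the torus. -/
noncomputable def tL (t : Fˣ) : Γ := Function.surjInv hs (tG hF t)

theorem zL_spec (b : F) : σ (zL hF hs b) = uG hF 0 b := Function.surjInv_eq hs _
theorem sL_spec (a : F) : σ (sL hF hs a) = uG hF a 0 := Function.surjInv_eq hs _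
theorem tL_spec (t : Fˣ) : σ (tL hF hs t) = tG hF t := Function.surjInv_eq hs _

include hm in
theorem tL_conj_z (t : Fˣ) (b : F) : σ (tL hF hs t * zL hF hs b * (tL hF hs t)⁻¹) =
    uG hF 0 ((t : F) ^ (2 ^ (m + 1) + 1) * b) := by
  rw [map_mul, map_mul, map_inv, tL_spec, zL_spec, tG_conj hF hm, mul_zero]

include hm in
theorem tL_conj_s (t : Fˣ) (a : F) : σ (tL hF hs t * sL hF hs a * (tL hF hs t)⁻¹) =
    uG hF ((t : F) * a) 0 := by
  rw [map_mul, map_mul, map_inv, tL_spec, sL_spec, tG_conj hF hm, mul_zero]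

/-- The indicator of the kernel. -/
noncomputable def eps (y w : Γ) : ZMod 2 := by
  classical exact if w = y then 1 else 0

theorem eps_self (y : Γ) : eps y y = 1 := by
  classical simp [eps]

include hy1 in
theorem eps_one : eps y 1 = 0 := by
  classical simp [eps, hy1.symm]

include hy1 hyk hY in
theorem y_sq : y * y = 1 := by
  rcases hY (y * y) (mul_mem hyk hyk) with h | h
  · exact h
  · exact absurd (by simpa using h) hy1

include hy1 hyk hY in
theorem ker_sq {w : Γ} (hw : w ∈ σ.ker) : w * w = 1 := by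
  rcases hY w hw with rfl | rfl
  · simp
  · exact y_sq hy1 hyk hY

include hy1 hyk hY in
theorem eps_mul {w w' : Γ} (hw : w ∈ σ.ker) (hw' : w' ∈ σ.ker) : eps y (w * w') = eps y w + eps y w' := by
  rcases hY w hw with rfl | rfl
  · rw [one_mul, eps_one hy1, zero_add]
  · rcases hY w' hw' with rfl | rfl
    · rw [mul_one, eps_one hy1, add_zero]
    · rw [y_sq hy1 hyk hY, eps_one hy1, eps_self]
      decide

include hY in
theorem eq_one_of_eps {w : Γ} (hw : w ∈ σ.ker) (h : eps y w = 0) : w = 1 := by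
  rcases hY w hw with rfl | rfl
  · rfl
  · rw [eps_self] at h
    exact absurd h (by decide)

include hK hy1 hyk hY in
theorem sq_congr {x x' : Γ} (h : σ x = σ x') : x * x = x' * x' := by
  have hk : x' * x⁻¹ ∈ σ.ker := by rw [MonoidHom.mem_ker, map_mul, map_inv, h, mul_inv_cancel]
  obtain ⟨k, hk', rfl⟩ : ∃ k ∈ σ.ker, x' = k * x := ⟨_, hk, by group⟩
  have e1 : x * k = k * x := Subgroup.mem_center_iff.mp (hK hk') x
  have e2 := ker_sq hy1 hyk hY hk'
  calc x * x = (k * k) * (x * x) := by rw [e2, one_mul]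
    _ = k * x * (k * x) := by
      simp only [mul_assoc]
      rw [← mul_assoc x k x, e1, mul_assoc]

/-- The vanishing criterion for biadditive functions. -/
theorem bi_vanish {n d e : ℕ} (hF' : Fintype.card F = 2 ^ n) (κ : F → F → ZMod 2)
    (hl : ∀ a a' b, κ (a + a') b = κ a b + κ a' b) (hr : ∀ a b b', κ a (b + b') = κ a b + κ a b')
    {f g : F → F} (hf : PD d f) (hg : PD e g) (hd : d + e < n) (f0 : f 0 = 0) {c : ZMod 2}
    (hκ : ∀ t : F, t ≠ 0 → κ (f t) (g t) = c) : c = 0 := by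
  let B : F →+ F →+ ZMod 2 := AddMonoidHom.mk' (fun u => AddMonoidHom.mk' (fun v => κ u v)
      (fun v v' => hr u v v')) (fun u u' => by
        ext v
        exact hl u u' v)
  have h1 : PD (d + e) (fun t : F => B (f t) (g t)) := PD.leibniz B _ d e _ _ rfl hf hg
  refine const_eq_zero hF' hd (X := ZMod 2) (fun x => CharTwo.add_self_eq_zero x) h1 ?_ hκ
  simp [f0]

include hF in
theorem PD_sg : PD 1 (fun t : F => t ^ (2 ^ (m + 1))) :=
  PD_add_hom (AddMonoidHom.mk' (fun x : F => x ^ (2 ^ (m + 1))) (sg_add hF))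

include hF in
theorem PD_tb (b : F) : PD 2 (fun t : F => t ^ (2 ^ (m + 1) + 1) * b) := by
  have h1 := PD.leibniz (AddMonoidHom.mul (R := F)) 2 1 1 _ _ rfl (PD_sg hF)
    (PD_add_hom (AddMonoidHom.mulRight b))
  have e : (fun t : F => t ^ (2 ^ (m + 1) + 1) * b) = fun t : F => AddMonoidHom.mul (t ^ 2 ^ (m + 1))
      ((AddMonoidHom.mulRight b) t) := by
    funext t
    simp [pow_succ, mul_assoc]
  rw [e]
  exact h1

theorem PD_ta (a : F) : PD 1 (fun t : F => t * a) := PD_add_hom (AddMonoidHom.mulRight a)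

/-- Commutators of lifts of commuting elements lie in the kernel. -/
theorem comm_mem_ker {x w : Γ} (h : σ x * σ w = σ w * σ x) : ⁅x, w⁆ ∈ σ.ker := by
  rw [MonoidHom.mem_ker, map_commutatorElement, commutatorElement_eq_one_iff_mul_comm, h]

/-- Conjugation fixes central commutators. -/
theorem comm_conj_ker (hK : σ.ker ≤ Subgroup.center Γ) {x w : Γ} (h : ⁅x, w⁆ ∈ σ.ker) (r : Γ) :
    ⁅r * x * r⁻¹, r * w * r⁻¹⁆ = ⁅x, w⁆ := by
  rw [← conjugate_commutatorElement, Subgroup.mem_center_iff.mp (hK h) r, mul_assoc, mul_inv_cancel, mul_one]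

include hm in
theorem uG_zero_mul (b b' : F) : uG hF 0 b * uG hF 0 b' = uG hF 0 (b + b') := by
  rw [uG_mul hF, add_zero, sg_zero, zero_mul, add_zero]

include hm in
theorem uG_zero_comm (b b' : F) : uG hF 0 b * uG hF 0 b' = uG hF 0 b' * uG hF 0 b := by
  rw [uG_zero_mul hF hm, uG_zero_mul hF hm, add_comm]

include hm hK hy1 hyk hY in
/-- First step: the preimage of the centre is abelian. -/
theorem comm_zz (hn : 4 < 2 * m + 1) (b b' : F) : ⁅zL hF hs b, zL hF hs b'⁆ = 1 := by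
  have hmem : ∀ b b' : F, ⁅zL hF hs b, zL hF hs b'⁆ ∈ σ.ker := fun b b' =>
    comm_mem_ker (by rw [zL_spec, zL_spec]; exact uG_zero_comm hF hm _ _)
  have hcen : ∀ {k : Γ}, k ∈ σ.ker → ∀ x, k * x = x * k := fun h x => (Subgroup.mem_center_iff.mp (hK h) x).symm
  have hadd : ∀ b b' : F, σ (zL hF hs (b + b')) = σ (zL hF hs b * zL hF hs b') := fun b b' => by
    rw [map_mul, zL_spec, zL_spec, zL_spec, uG_zero_mul hF hm]
  refine eq_one_of_eps hY (hmem b b') ?_
  refine bi_vanish hF (fun b b' => eps y ⁅zL hF hs b, zL hF hs b'⁆) ?_ ?_ (PD_tb hF b) (PD_tb hF b') hn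
    (by simp) (fun t ht => ?_)
  · intro u u' v
    show eps y ⁅zL hF hs (u + u'), zL hF hs v⁆ = _
    rw [comm_congr hK (hadd u u') rfl, comm_mul_left (hcen (hmem u' v) _), eps_mul hy1 hyk hY (hmem _ _) (hmem _ _),
      add_comm]
  · intro u v v'
    show eps y ⁅zL hF hs u, zL hF hs (v + v')⁆ = _
    rw [comm_congr hK rfl (hadd v v'), comm_mul_right (hcen (hmem u v') _), eps_mul hy1 hyk hY (hmem _ _) (hmem _ _)]
  · show eps y ⁅zL hF hs _, zL hF hs _⁆ = eps y ⁅zL hF hs b, zL hF hs b'⁆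
    rw [← comm_conj_ker hK (hmem b b') (tL hF hs (Units.mk0 t ht))]
    congr 1
    exact comm_congr hK (by rw [tL_conj_z hF hm, zL_spec]; rfl) (by rw [tL_conj_z hF hm, zL_spec]; rfl)

include hm hK hy1 hyk hY in
/-- Second step: the preimage of the centre has exponent two. -/
theorem sq_z (hn : 4 < 2 * m + 1) (b : F) : zL hF hs b * zL hF hs b = 1 := by
  have hmem : ∀ b : F, zL hF hs b * zL hF hs b ∈ σ.ker := fun b => by
    have hbb : b + b = 0 := by rw [← two_mul, two_zero hF, zero_mul]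
    rw [MonoidHom.mem_ker, map_mul, zL_spec, uG_zero_mul hF hm, hbb]
    exact uG_zero hF hm
  have hcen : ∀ {k : Γ}, k ∈ σ.ker → ∀ x, k * x = x * k := fun h x => (Subgroup.mem_center_iff.mp (hK h) x).symm
  have hadd : ∀ b b' : F, σ (zL hF hs (b + b')) = σ (zL hF hs b * zL hF hs b') := fun b b' => by
    rw [map_mul, zL_spec, zL_spec, zL_spec, uG_zero_mul hF hm]
  have hcomm : ∀ b b' : F, zL hF hs b * zL hF hs b' = zL hF hs b' * zL hF hs b := fun b b' =>
    commutatorElement_eq_one_iff_mul_comm.mp (comm_zz hF hm hs hK hy1 hyk hY hn b b')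
  refine eq_one_of_eps hY (hmem b) ?_
  let Q : F →+ ZMod 2 := AddMonoidHom.mk' (fun b => eps y (zL hF hs b * zL hF hs b)) (fun u v => by
    rw [sq_congr hK hy1 hyk hY (hadd u v)]
    have e : zL hF hs u * zL hF hs v * (zL hF hs u * zL hF hs v) =
        zL hF hs u * zL hF hs u * (zL hF hs v * zL hF hs v) := by
      rw [mul_assoc, ← mul_assoc (zL hF hs v), hcomm v u, mul_assoc, mul_assoc]
    rw [e, eps_mul hy1 hyk hY (hmem _) (hmem _)])
  have h1 : PD 2 (fun t : F => Q (t ^ (2 ^ (m + 1) + 1) * b)) := (PD_tb hF b).comp_left Q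
  refine const_eq_zero hF (d := 2) (by omega) (X := ZMod 2) (fun x => CharTwo.add_self_eq_zero x) h1 (by simp) (fun t ht => ?_)
  show eps y (zL hF hs _ * zL hF hs _) = _
  have e1 : σ (zL hF hs (t ^ (2 ^ (m + 1) + 1) * b)) =
      σ (tL hF hs (Units.mk0 t ht) * zL hF hs b * (tL hF hs (Units.mk0 t ht))⁻¹) := by
    rw [tL_conj_z hF hm, zL_spec]; rfl
  rw [sq_congr hK hy1 hyk hY e1]
  have e2 : ∀ r x : Γ, r * x * r⁻¹ * (r * x * r⁻¹) = r * (x * x) * r⁻¹ := fun r x => by group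
  rw [e2, ← hcen (hmem b), mul_assoc, mul_inv_cancel, mul_one]

include hm hK hy1 hyk hY in
/-- Third step: the preimage of the centre commutes with the lifts. -/
theorem comm_sz (hn : 4 < 2 * m + 1) (a b : F) : ⁅sL hF hs a, zL hF hs b⁆ = 1 := by
  have hmem : ∀ (a b : F), ⁅sL hF hs a, zL hF hs b⁆ ∈ σ.ker := fun a b =>
    comm_mem_ker (by
      rw [sL_spec, zL_spec]
      have h2 := two_zero hF
      rw [uG_mul hF, uG_mul hF, sg_zero]
      congr 1 <;> ring)
  have hcen : ∀ {k : Γ}, k ∈ σ.ker → ∀ x, k * x = x * k := fun h x => (Subgroup.mem_center_iff.mp (hK h) x).symm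
  have hadd : ∀ b b' : F, σ (zL hF hs (b + b')) = σ (zL hF hs b * zL hF hs b') := fun b b' => by
    rw [map_mul, zL_spec, zL_spec, zL_spec, uG_zero_mul hF hm]
  refine eq_one_of_eps hY (hmem a b) ?_
  refine bi_vanish hF (fun a b => eps y ⁅sL hF hs a, zL hF hs b⁆) ?_ ?_ (PD_ta a) (PD_tb hF b) (by omega)
    (by simp) (fun t ht => ?_)
  · intro u u' v
    show eps y ⁅sL hF hs (u + u'), zL hF hs v⁆ = _
    have e1 : σ (sL hF hs (u + u')) = σ (sL hF hs u * sL hF hs u' * zL hF hs (u ^ (2 ^ (m + 1)) * u')) := by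
      have h2 := two_zero hF
      rw [map_mul, map_mul, sL_spec, sL_spec, sL_spec, zL_spec, uG_mul hF, uG_mul hF]
      congr 1
      · ring
      · grind
    rw [comm_congr hK e1 rfl, comm_mul_left (by rw [comm_zz hF hm hs hK hy1 hyk hY hn]; simp),
      comm_zz hF hm hs hK hy1 hyk hY hn, one_mul, comm_mul_left (hcen (hmem u' v) _),
      eps_mul hy1 hyk hY (hmem _ _) (hmem _ _), add_comm]
  · intro u v v'
    show eps y ⁅sL hF hs u, zL hF hs (v + v')⁆ = _
    rw [comm_congr hK rfl (hadd v v'), comm_mul_right (hcen (hmem u v') _), eps_mul hy1 hyk hY (hmem _ _) (hmem _ _)]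
  · show eps y ⁅sL hF hs _, zL hF hs _⁆ = eps y ⁅sL hF hs a, zL hF hs b⁆
    rw [← comm_conj_ker hK (hmem a b) (tL hF hs (Units.mk0 t ht))]
    congr 1
    exact comm_congr hK (by rw [tL_conj_s hF hm, sL_spec]; rfl) (by rw [tL_conj_z hF hm, zL_spec]; rfl)

include hm hs hK hy1 hyk hY in
/-- The preimage of the unipotent subgroup cannot contain the kernel in its commutator subgroup. -/
theorem not_mem_commutator (hn : 4 < 2 * m + 1) :
    y ∉ ⁅(UU hF hm).comap σ, (UU hF hm).comap σ⁆ := by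
  intro hyc
  classical
  have hzz := comm_zz hF hm hs hK hy1 hyk hY hn
  have hsz := comm_sz hF hm hs hK hy1 hyk hY hn
  have hsq := sq_z hF hm hs hK hy1 hyk hY hn
  set Z := (ZZ hF hm).comap σ with hZ
  have mem_Z : ∀ {x : Γ}, x ∈ Z ↔ ∃ b : F, σ x = uG hF 0 b := Iff.rfl
  have hyZ : y ∈ Z := by
    refine mem_Z.mpr ⟨0, ?_⟩
    rw [MonoidHom.mem_ker.mp hyk, uG_zero hF hm]
  -- commutativity
  have Zcomm : ∀ {x x' : Γ}, x ∈ Z → x' ∈ Z → x * x' = x' * x := by
    intro x x' hx hx'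
    obtain ⟨b, hb⟩ := mem_Z.mp hx
    obtain ⟨b', hb'⟩ := mem_Z.mp hx'
    rw [← commutatorElement_eq_one_iff_mul_comm, comm_congr hK (x' := zL hF hs b) (w' := zL hF hs b')
      (by rw [hb, zL_spec]) (by rw [hb', zL_spec]), hzz]
  have Zsq : ∀ {x : Γ}, x ∈ Z → x * x = 1 := by
    intro x hx
    obtain ⟨b, hb⟩ := mem_Z.mp hx
    rw [sq_congr hK hy1 hyk hY (x' := zL hF hs b) (by rw [hb, zL_spec]), hsq]
  -- centrality in the preimage of the unipotent group
  have Ucen : ∀ {u x : Γ}, u ∈ (UU hF hm).comap σ → x ∈ Z → u * x = x * u := by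
    intro u x hu hx
    obtain ⟨b, hb⟩ := mem_Z.mp hx
    obtain ⟨a, c, hac⟩ := (mem_UU hF hm).mp (Subgroup.mem_comap.mp hu)
    have e1 : σ u = σ (sL hF hs a * zL hF hs c) := by
      rw [hac, map_mul, sL_spec, zL_spec, uG_mul hF]
      congr 1 <;> simp [sg_zero]
    rw [← commutatorElement_eq_one_iff_mul_comm, comm_congr hK e1 (w' := zL hF hs b) (by rw [hb, zL_spec]),
      comm_mul_left (by rw [hzz]; simp), hzz, hsz, one_mul]
  -- the commutators
  have hZt : ∀ (t : Fˣ) {x : Γ}, x ∈ Z → tL hF hs t * x * (tL hF hs t)⁻¹ ∈ Z := by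
    intro t x hx
    obtain ⟨b, hb⟩ := mem_Z.mp hx
    refine mem_Z.mpr ⟨(t : F) ^ (2 ^ (m + 1) + 1) * b, ?_⟩
    rw [map_mul, map_mul, map_inv, tL_spec, hb, tG_conj hF hm, mul_zero]
  have hsU : ∀ a, sL hF hs a ∈ (UU hF hm).comap σ := fun a => by
    rw [Subgroup.mem_comap, sL_spec]
    exact uG_mem hF hm _ _
  have hcZ : ∀ a b, ⁅sL hF hs a, sL hF hs b⁆ ∈ Z := by
    intro a b
    refine mem_Z.mpr ⟨a ^ (2 ^ (m + 1)) * b + b ^ (2 ^ (m + 1)) * a, ?_⟩
    rw [map_commutatorElement, sL_spec, sL_spec, commutatorElement_def, commutator_form hF hm]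
  have hzU : ∀ b, zL hF hs b ∈ Z := fun b => mem_Z.mpr ⟨b, zL_spec hF hs b⟩
  have hzU' : ∀ b, zL hF hs b ∈ (UU hF hm).comap σ := fun b => by
    rw [Subgroup.mem_comap, zL_spec]
    exact uG_mem hF hm _ _
  letI inst : CommGroup Z := { (inferInstance : Group Z) with mul_comm := fun x x' => Subtype.ext (Zcomm x.2 x'.2) }
  have hX : ∀ x : Z, x * x = 1 := fun x => Subtype.ext (Zsq x.2)
  let act : Fˣ → Z →* Z := fun t =>
    { toFun := fun x => ⟨tL hF hs t * x * (tL hF hs t)⁻¹, hZt t x.2⟩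
      map_one' := Subtype.ext (by simp)
      map_mul' := fun x x' => Subtype.ext (by
        show tL hF hs t * ((x : Γ) * x') * (tL hF hs t)⁻¹ = tL hF hs t * x * (tL hF hs t)⁻¹ * (tL hF hs t * x' * (tL hF hs t)⁻¹)
        group) }
  have hleft : ∀ u u' v : F, ⁅sL hF hs (u + u'), sL hF hs v⁆ = ⁅sL hF hs u, sL hF hs v⁆ * ⁅sL hF hs u', sL hF hs v⁆ := by
    intro u u' v
    have e1 : σ (sL hF hs (u + u')) = σ (sL hF hs u * sL hF hs u' * zL hF hs (u ^ (2 ^ (m + 1)) * u')) := by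
      have h2 := two_zero hF
      rw [map_mul, map_mul, sL_spec, sL_spec, sL_spec, zL_spec, uG_mul hF, uG_mul hF]
      congr 1
      · ring
      · grind
    have e2 : ⁅zL hF hs (u ^ (2 ^ (m + 1)) * u'), sL hF hs v⁆ = 1 := by
      rw [commutatorElement_eq_one_iff_mul_comm]
      exact (Ucen (hsU v) (hzU _)).symm
    rw [comm_congr hK e1 rfl, comm_mul_left (by rw [e2]; simp), e2, one_mul,
      comm_mul_left (Ucen (hsU u) (hcZ u' v)).symm]
    exact Zcomm (hcZ _ _) (hcZ _ _)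
  let c : F → F → Z := fun a b => ⟨⁅sL hF hs a, sL hF hs b⁆, hcZ a b⟩
  have hc1 : ∀ a a' b, c (a + a') b = c a b * c a' b := fun a a' b => Subtype.ext (hleft a a' b)
  have hc2 : ∀ a b b', c a (b + b') = c a b * c a b' := fun a b b' => Subtype.ext (by
    show ⁅sL hF hs a, sL hF hs (b + b')⁆ = ⁅sL hF hs a, sL hF hs b⁆ * ⁅sL hF hs a, sL hF hs b'⁆
    rw [← commutatorElement_inv, hleft, _root_.mul_inv_rev, commutatorElement_inv, commutatorElement_inv]
    exact Zcomm (hcZ _ _) (hcZ _ _))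
  have hact : ∀ (t : Fˣ) a b, act t (c a b) = c ((t : F) * a) ((t : F) * b) := fun t a b => Subtype.ext (by
    show tL hF hs t * ⁅sL hF hs a, sL hF hs b⁆ * (tL hF hs t)⁻¹ = ⁅sL hF hs _, sL hF hs _⁆
    rw [conjugate_commutatorElement]
    exact comm_congr hK (by rw [tL_conj_s hF hm, sL_spec]) (by rw [tL_conj_s hF hm, sL_spec]))
  have hy : ∀ t, act t ⟨y, hyZ⟩ = ⟨y, hyZ⟩ := fun t => Subtype.ext (by
    show tL hF hs t * y * (tL hF hs t)⁻¹ = y
    rw [Subgroup.mem_center_iff.mp (hK hyk), mul_assoc, mul_inv_cancel, mul_one])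
  obtain ⟨N, hN1, hN2⟩ := exists_norm hF (by omega) hX act c hc1 hc2 hact hy
  have hle : ⁅(UU hF hm).comap σ, (UU hF hm).comap σ⁆ ≤ (N.ker).map Z.subtype := by
    rw [Subgroup.commutator_le]
    intro u hu u' hu'
    obtain ⟨a, b, hab⟩ := (mem_UU hF hm).mp (Subgroup.mem_comap.mp hu)
    obtain ⟨a', b', hab'⟩ := (mem_UU hF hm).mp (Subgroup.mem_comap.mp hu')
    have e1 : σ u = σ (sL hF hs a * zL hF hs b) := by
      rw [hab, map_mul, sL_spec, zL_spec, uG_mul hF]
      congr 1 <;> simp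
    have e2 : σ u' = σ (sL hF hs a' * zL hF hs b') := by
      rw [hab', map_mul, sL_spec, zL_spec, uG_mul hF]
      congr 1 <;> simp
    have e3 : ⁅zL hF hs b, sL hF hs a' * zL hF hs b'⁆ = 1 := by
      rw [commutatorElement_eq_one_iff_mul_comm]
      exact (Ucen (mul_mem (hsU _) (hzU' _)) (hzU _)).symm
    have e4 : ⁅sL hF hs a, zL hF hs b'⁆ = 1 := hsz _ _
    rw [comm_congr hK e1 e2, comm_mul_left (by rw [e3]; simp), e3, one_mul,
      comm_mul_right (by rw [e4]; simp), e4, mul_one]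
    exact ⟨c a a', hN2 a a', rfl⟩
  obtain ⟨w, hw1, hw2⟩ := hle hyc
  have hw3 : w = ⟨y, hyZ⟩ := Subtype.ext hw2
  rw [hw3] at hw1
  have hw4 : N ⟨y, hyZ⟩ = 1 := hw1
  rw [hN1] at hw4
  exact hy1 (congrArg Subtype.val hw4)

end Cfsg.Agent.Lib.Suzuki
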